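import Cfsg.Agent.Lib.Char.Monomial
import Cfsg.Agent.Lib.Char.Clifford
import Cfsg.Agent.Lib.Char.DegreesPrimeTo
import Cfsg.Agent.Lib.CharKernel
import Cfsg.Agent.Lib.Char.Kernel
import Cfsg.Agent.Lib.Char.Degree
import Cfsg.Agent.Lib.PermChar.Basic
import Cfsg.Agent.Lib.CharClifford.Basic
import Cfsg.Agent.Lib.HallHigman.DerivedLength

/-!
# Monomiality over an abelian normal subgroup of prime power index, and Taketa's count
-/

set_option autoImplicit false
set_option linter.unusedSectionVars false
set_option linter.style.haveILetI false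

namespace Cfsg.Agent.Lib.Char.ThreeDeg

open Cfsg Cfsg.Agent.Lib Cfsg.Agent.Lib.Char

universe u

/-- A group with an abelian normal subgroup of prime power index is monomial. -/
theorem monomial_of_abelian : ∀ (M : ℕ) (G : Type u) [Group G] [Fintype G], Nat.card G = M →
    ∀ (C : Subgroup G), C.Normal → (∀ a ∈ C, ∀ b ∈ C, a * b = b * a) →
    ∀ {q : ℕ}, q.Prime → (∃ k, C.index = q ^ k) → ∀ χ : G → ℂ, IsIrrCharacter G χ →
      ∃ (H : Subgroup G) (lam : H →* ℂˣ), χ = indFun H (fun h => (lam h : ℂ)) := by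
  intro M
  induction M using Nat.strong_induction_on with
  | _ M ih =>
    intro G _ _ hM C hCn hC q hq hk χ hχ
    classical
    haveI := hCn
    haveI := Fact.mk hq
    have hcχ := isCharacter_of_isIrr hχ
    by_cases h1 : χ 1 = 1
    · obtain ⟨l, hl⟩ := exists_hom_of_degree_one hcχ h1
      refine ⟨⊤, l.comp (⊤ : Subgroup G).subtype, ?_⟩
      rw [funext hl]
      exact (indFun_top l).symm
    obtain ⟨k, hk⟩ := hk
    obtain ⟨T, ψ, hT, hψ, hind⟩ := exists_induced_proper hχ h1 C hC
      (fun N _ hCN hN => by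
        have : Nontrivial (G ⧸ N) := QuotientGroup.nontrivial_iff.mpr hN
        obtain ⟨j, -, hj⟩ := (Nat.dvd_prime_pow hq).1 (hk ▸ Subgroup.index_dvd_of_le hCN)
        exact bot_lt_iff_ne_bot.1
          (IsPGroup.of_card (by rw [← Subgroup.index_eq_card, hj]) : IsPGroup q (G ⧸ N)).bot_lt_center)
    have hlt : Nat.card T < M := by
      rw [← hM]
      exact lt_of_le_of_ne (Subgroup.card_le_card_group T)
        fun h => hT (Subgroup.eq_top_of_card_eq T h)
    obtain ⟨H, lam, hlam⟩ := ih _ hlt T rfl (C.subgroupOf T) inferInstance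
      (fun a ha b hb => Subtype.ext (hC a ha b hb)) hq
      (by
        obtain ⟨j, -, hj⟩ := (Nat.dvd_prime_pow hq).1
          (hk ▸ Subgroup.relIndex_dvd_index_of_normal C T)
        exact ⟨j, hj⟩) ψ hψ
    refine ⟨H.map T.subtype,
      lam.comp (H.equivMapOfInjective T.subtype T.subtype_injective).symm.toMonoidHom, ?_⟩
    rw [← hind, hlam, indFun_trans T H]
    rfl

/-- Taketa's bound for monomial groups. -/
theorem taketa_count {G : Type u} [Group G] [Finite G]
    (hM : ∀ [Fintype G], ∀ χ : G → ℂ, IsIrrCharacter G χ → ∃ (H : Subgroup G) (lam : H →* ℂˣ),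
      χ = indFun H (fun h => (lam h : ℂ))) :
    derivedSeries G {d : ℕ | ∃ χ : IrrCharacter G, charDegree (χ : G → ℂ) = d}.ncard = ⊥ := by
  classical
  haveI := Fintype.ofFinite G
  set cd := {d : ℕ | ∃ χ : IrrCharacter G, charDegree (χ : G → ℂ) = d} with hcd
  have hfin : cd.Finite := by
    refine (Set.finite_range fun χ : IrrCharacter G => charDegree (χ : G → ℂ)).subset ?_
    rintro d ⟨χ, rfl⟩
    exact ⟨χ, rfl⟩
  let r : ℕ → ℕ := fun d => {e | e ∈ cd ∧ e ≤ d}.ncard
  have hsub : ∀ d, {e | e ∈ cd ∧ e ≤ d}.Finite := fun d => hfin.subset fun e he => he.1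
  have hr0 : ∀ (χ : G → ℂ) (_ : Cfsg.IsIrrCharacter G χ) {d : ℕ}, charDegree χ = d → 0 < r d :=
    fun χ hχ d hd => (Set.ncard_pos (hsub d)).2 ⟨d, ⟨⟨χ, hχ⟩, hd⟩, le_rfl⟩
  have hrlt : ∀ (e d : ℕ), e < d → ∀ (χ : G → ℂ) (_ : Cfsg.IsIrrCharacter G χ),
      charDegree χ = d → r e < r d := fun e d hed χ hχ hd =>
    Set.ncard_lt_ncard ⟨fun a ha => ⟨ha.1, by have := ha.2; omega⟩,
      fun hs => by
        have := (hs (show d ∈ {a | a ∈ cd ∧ a ≤ d} from ⟨⟨⟨χ, hχ⟩, hd⟩, le_rfl⟩)).2
        omega⟩ (hsub d)
  have key : ∀ d : ℕ, ∀ χ : G → ℂ, Cfsg.IsIrrCharacter G χ → Cfsg.charDegree χ = d →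
      ∀ g ∈ derivedSeries G (r d), χ g = χ 1 := by
    intro d
    induction d using Nat.strong_induction_on with
    | _ d ih =>
      intro χ hχ hd g hg
      obtain ⟨H, lam, hlam⟩ := hM χ hχ
      have hdH : d = H.index := by
        rw [← hd, hlam]
        refine Cfsg.Agent.Lib.Char.charDegree_eq_of_apply_one ?_
        rw [Cfsg.Agent.Lib.Char.indFun_one]
        simp
      have hd0 : 0 < d := hdH ▸ Nat.pos_of_ne_zero Subgroup.index_ne_zero_of_finite
      -- the derived subgroup of level `d - 1` lies in `H`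
      have hrd : 0 < r d := hr0 χ hχ hd
      have hD : derivedSeries G (r d - 1) ≤ H := by
        rcases eq_or_ne d 1 with h1 | h1
        · rw [Subgroup.index_eq_one.mp (hdH.symm.trans h1)]; exact le_top
        intro a ha
        set π : G → ℂ := Cfsg.indFun H (fun _ => 1) with hπ
        have hπc : Cfsg.IsCharacter G π := Cfsg.Agent.Lib.Char.isCharacter_indFun H Cfsg.Agent.Lib.Char.isCharacter_one
        obtain ⟨m, hm⟩ := Cfsg.Agent.Lib.Char.isCharacter_eq_sum hπc
        have hπ1 : π 1 = (d : ℂ) := by rw [hπ, Cfsg.Agent.Lib.Char.indFun_one, hdH, mul_one]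
        have hm1 : ∀ ψ : Cfsg.IrrCharacter G, m ψ ≠ 0 →
            Cfsg.charDegree (ψ : G → ℂ) < d := by
          intro ψ hψ
          have hone : m ⟨_, Cfsg.Agent.Lib.Char.isIrrCharacter_one⟩ = 1 := by
            have h2 : Cfsg.classInner π (fun _ : G => (1 : ℂ)) = 1 := by
              rw [hπ, Cfsg.Agent.Lib.Char.classInner_indFun _ _ (fun _ _ => rfl)]
              exact Cfsg.Agent.Lib.Char.classInner_irr_self Cfsg.Agent.Lib.Char.isIrrCharacter_one
            rw [hm, Cfsg.Agent.Lib.Char.classInner_sum_left,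
              Finset.sum_eq_single ⟨_, Cfsg.Agent.Lib.Char.isIrrCharacter_one⟩] at h2
            · rw [Cfsg.Agent.Lib.Char.classInner_smul_left,
                Cfsg.Agent.Lib.Char.classInner_irr_self Cfsg.Agent.Lib.Char.isIrrCharacter_one, mul_one] at h2
              exact_mod_cast h2
            · intro b _ hb
              rw [Cfsg.Agent.Lib.Char.classInner_smul_left, Cfsg.Agent.Lib.Char.classInner_irr_ne b.2
                Cfsg.Agent.Lib.Char.isIrrCharacter_one (fun h => hb (Subtype.ext h)), mul_zero]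
            · simp
          have hsum : ∑ φ : Cfsg.IrrCharacter G, m φ * Cfsg.charDegree (φ : G → ℂ) = d := by
            have h2 := congrFun hm 1
            rw [hπ1] at h2
            simp only [Finset.sum_apply, Pi.smul_apply, smul_eq_mul,
              Cfsg.Agent.Lib.Char.apply_one_eq_charDegree (Cfsg.Agent.Lib.Char.isCharacter_of_isIrr (Subtype.prop _))] at h2
            exact_mod_cast h2.symm
          have hd1 : Cfsg.charDegree (fun _ : G => (1 : ℂ)) = 1 := Cfsg.Agent.Lib.Char.charDegree_one
          by_cases hψ1 : ψ = ⟨_, Cfsg.Agent.Lib.Char.isIrrCharacter_one⟩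
          · subst hψ1; rw [hd1]; omega
          · have h2 := Finset.sum_le_sum_of_subset (f := fun φ : Cfsg.IrrCharacter G =>
              m φ * Cfsg.charDegree (φ : G → ℂ))
              (Finset.subset_univ {ψ, (⟨_, Cfsg.Agent.Lib.Char.isIrrCharacter_one⟩ : Cfsg.IrrCharacter G)})
            rw [Finset.sum_pair hψ1, hone, hd1, hsum] at h2
            have h3 : Cfsg.charDegree (ψ : G → ℂ) ≤ m ψ * Cfsg.charDegree (ψ : G → ℂ) :=
              Nat.le_mul_of_pos_left _ (Nat.pos_of_ne_zero hψ)
            omega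
        have hπa : π a = π 1 := by
          rw [hm]
          simp only [Finset.sum_apply, Pi.smul_apply, smul_eq_mul]
          refine Finset.sum_congr rfl fun ψ _ => ?_
          by_cases hψ : m ψ = 0
          · rw [hψ, Nat.cast_zero, zero_mul, zero_mul]
          · rw [ih _ (hm1 ψ hψ) ψ ψ.2 rfl a
              (derivedSeries_antitone G (by have := hrlt _ _ (hm1 ψ hψ) χ hχ hd; omega) ha)]
        rw [hπ1, hπ, Cfsg.Agent.Lib.PermChar.indFun_one_apply, Nat.cast_inj] at hπa
        haveI : Finite (G ⧸ H) := Finite.of_surjective _ Quotient.mk''_surjective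
        have hall : ∀ q : G ⧸ H, a • q = q := by
          by_contra hcon
          push Not at hcon
          obtain ⟨q, hq⟩ := hcon
          have hlt : Nat.card {q : G ⧸ H // a • q = q} < Nat.card (G ⧸ H) :=
            Finite.card_subtype_lt (x := q) hq
          rw [← Subgroup.index_eq_card, ← hdH] at hlt
          rw [Cfsg.Agent.Lib.PermChar.fixNum] at hπa
          omega
        have := (Cfsg.Agent.Lib.PermChar.smul_mk_eq_self_iff H a 1).mp (hall _)
        simpa using this
      -- hence the next one lies in every conjugate of the kernel of `lam`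
      have hker : derivedSeries G (r d) ≤ lam.ker.map H.subtype := by
        have h2 : derivedSeries G (r d) ≤ ⁅H, H⁆ := by
          obtain ⟨e, he⟩ := Nat.exists_eq_succ_of_ne_zero hrd.ne'
          rw [he] at hD ⊢
          exact Subgroup.commutator_mono (by simpa using hD) (by simpa using hD)
        refine h2.trans ?_
        rw [← Subgroup.map_subtype_commutator H]
        exact Subgroup.map_mono (Abelianization.commutator_subset_ker lam)
      rw [hlam]
      simp only [Cfsg.indFun]
      congr 1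
      refine Finset.sum_congr rfl fun x _ => ?_
      have hc : x⁻¹ * g * x ∈ derivedSeries G (r d) := by
        simpa using (derivedSeries_normal G (r d)).conj_mem g hg x⁻¹
      obtain ⟨h, hh, he⟩ := hker hc
      have he' : (h : G) = x⁻¹ * g * x := he
      rw [← he', mul_one, inv_mul_cancel, Cfsg.Agent.Lib.Char.extendByZero_coe]
      rw [show Cfsg.extendByZero H (fun h => (lam h : ℂ)) 1 = (lam 1 : ℂ) from
        Cfsg.Agent.Lib.Char.extendByZero_coe H _ 1, MonoidHom.mem_ker.mp hh, map_one]
  rw [eq_bot_iff]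
  intro g hg
  rw [Subgroup.mem_bot]
  refine Cfsg.Agent.Lib.Char.eq_one_of_forall_irr fun χ => key _ χ χ.2 rfl g ?_
  exact derivedSeries_antitone G (Set.ncard_le_ncard (fun a ha => ha.1) hfin) hg


end Cfsg.Agent.Lib.Char.ThreeDeg
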