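import Cfsg.Agent.Lib.Char.ThreeDeg.Coprime
import Cfsg.Agent.Lib.Char.ThreeDeg.Monomial
import Cfsg.Agent.S4456
import Cfsg.Agent.Lib.Char.Ito

/-!
# At most three degrees: derived length at most the number of degrees
-/

set_option autoImplicit false
set_option linter.unusedSectionVars false
set_option linter.style.haveILetI false

namespace Cfsg.Agent.Lib.Char.ThreeDeg

open Cfsg Cfsg.Agent.Lib Cfsg.Agent.Lib.Char
open scoped commutatorElement

universe u

theorem derived_length : ∀ (M : ℕ) (G : Type u) [Group G] [Finite G], Nat.card G ≤ M →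
    ∀ D : Finset ℕ, D.card ≤ 3 → (∀ χ : IrrCharacter G, charDegree (χ : G → ℂ) ∈ D) →
      derivedSeries G D.card = ⊥ := by
  intro M
  induction M with
  | zero => intro G _ _ h; exact absurd h (Nat.card_pos (α := G)).not_ge
  | succ M ih =>
    intro G _ _ hM D hD3 hD
    classical
    haveI := Fintype.ofFinite G
    -- reduce to the exact set of degrees
    set E : Finset ℕ := Finset.univ.image fun χ : IrrCharacter G => charDegree (χ : G → ℂ) with hE
    suffices h : derivedSeries G E.card = ⊥ by
      refine le_bot_iff.1 ((derivedSeries_antitone G (Finset.card_le_card fun d hd => ?_)).trans h.le)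
      obtain ⟨χ, -, rfl⟩ := Finset.mem_image.1 hd
      exact hD χ
    have hE3 : E.card ≤ 3 := (Finset.card_le_card (fun d hd => by
      obtain ⟨χ, -, rfl⟩ := Finset.mem_image.1 hd
      exact hD χ)).trans hD3
    have hmem : ∀ χ : IrrCharacter G, charDegree (χ : G → ℂ) ∈ E :=
      fun χ => Finset.mem_image_of_mem _ (Finset.mem_univ χ)
    have h1E : 1 ∈ E := Finset.mem_image.2 ⟨Block.oneIrr G, Finset.mem_univ _, charDegree_one⟩
    have hEpos : ∀ d ∈ E, 0 < d := fun d hd => by
      obtain ⟨χ, -, rfl⟩ := Finset.mem_image.1 hd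
      exact charDegree_pos χ.2
    have hcard0 : 0 < E.card := Finset.card_pos.2 ⟨1, h1E⟩
    by_cases hE1 : E.card = 1
    · rw [hE1]
      obtain ⟨d, hd⟩ := Finset.card_eq_one.1 hE1
      rw [hd, Finset.mem_singleton] at h1E
      exact derivedSeries_one_of_comm (comm_of_all_one fun χ => by
        have := hmem χ
        rwa [hd, Finset.mem_singleton, ← h1E] at this)
    by_cases hE2 : E.card = 2
    · rw [hE2]
      obtain ⟨m, hm⟩ := (Finset.card_eq_one (s := E.erase 1)).1 (by rw [Finset.card_erase_of_mem h1E, hE2])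
      refine derivedSeries_two (m := m) fun χ => or_iff_not_imp_left.2 fun h => ?_
      have h2 : charDegree (χ : G → ℂ) ∈ E.erase 1 := Finset.mem_erase.2 ⟨h, hmem χ⟩
      rwa [hm, Finset.mem_singleton] at h2
    have hcard : E.card = 3 := by omega
    rw [hcard]
    obtain ⟨a, b, hne, hab⟩ := (Finset.card_eq_two (s := E.erase 1)).1 (by
      rw [Finset.card_erase_of_mem h1E, hcard])
    have haE : a ∈ E.erase 1 := by rw [hab]; exact Finset.mem_insert_self _ _
    have hbE : b ∈ E.erase 1 := by rw [hab]; exact Finset.mem_insert_of_mem (Finset.mem_singleton_self _)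
    obtain ⟨ha1, haE⟩ := Finset.mem_erase.1 haE
    obtain ⟨hb1, hbE⟩ := Finset.mem_erase.1 hbE
    have hd : ∀ χ : IrrCharacter G, charDegree (χ : G → ℂ) = 1 ∨ charDegree (χ : G → ℂ) = a ∨
        charDegree (χ : G → ℂ) = b := fun χ => or_iff_not_imp_left.2 fun h => by
      have h2 : charDegree (χ : G → ℂ) ∈ E.erase 1 := Finset.mem_erase.2 ⟨h, hmem χ⟩
      rwa [hab, Finset.mem_insert, Finset.mem_singleton] at h2
    obtain ⟨χa, -, hχa⟩ := Finset.mem_image.1 haE
    obtain ⟨χb, -, hχb⟩ := Finset.mem_image.1 hbE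
    by_cases hcop : a.Coprime b
    · exact coprime_case hd hcop hne ha1 hb1 ⟨χa, hχa⟩ ⟨χb, hχb⟩
    -- a prime dividing all nonlinear degrees
    obtain ⟨q, hq, hqa, hqb⟩ := Nat.Prime.not_coprime_iff_dvd.1 hcop
    haveI := Fact.mk hq
    obtain ⟨T, hTn, hTq, k, hk⟩ := Cfsg.Agent.S4456.result (G := G) q hq fun χ h => by
      rcases (hd χ).resolve_left h with h | h <;> rw [h] <;> assumption
    haveI := hTn
    haveI := Fintype.ofFinite T
    have hk0 : k ≠ 0 := by
      rintro rfl
      rw [pow_zero, Subgroup.index_eq_one] at hk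
      subst hk
      rw [Subgroup.card_top] at hTq
      exact hq.ne_one (Nat.eq_one_of_dvd_coprimes hTq ((hqa.trans (hχa ▸ charDegree_dvd_card χa.2))) dvd_rfl)
    have hTlt : Nat.card T < Nat.card G := by
      rw [← T.card_mul_index, hk]
      exact (lt_mul_iff_one_lt_right Nat.card_pos).2 (Nat.one_lt_pow hk0 hq.one_lt)
    -- degrees of `T`
    set D' : Finset ℕ := E.image fun d => ordCompl[q] d with hD'
    have hTd : ∀ θ : IrrCharacter T, charDegree (θ : T → ℂ) ∈ D' := fun θ => by
      obtain ⟨χ, e, -, he, hdvd⟩ := exists_over T θ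
      refine Finset.mem_image.2 ⟨_, hmem χ, ?_⟩
      rw [hk] at hdvd
      set c := e * (inertia T (θ : T → ℂ)).index with hc
      have ht0 := charDegree_pos θ.2
      have hcd : c ∣ q ^ k := by
        rw [he] at hdvd
        exact Nat.dvd_of_mul_dvd_mul_right ht0 hdvd
      obtain ⟨j, -, hj⟩ := (Nat.dvd_prime_pow hq).1 hcd
      have hqt : ¬ q ∣ charDegree (θ : T → ℂ) := fun h =>
        hq.ne_one (Nat.eq_one_of_dvd_coprimes hTq (h.trans (charDegree_dvd_card θ.2)) dvd_rfl)
      rw [he, hj, Nat.ordCompl_mul, Nat.ordCompl_self_pow hq, one_mul,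
        Nat.factorization_eq_zero_of_not_dvd hqt, pow_zero, Nat.div_one]
    -- degrees of the quotient by the derived subgroup of `T`
    set Eq : Finset ℕ := E.filter fun d => ordCompl[q] d = 1 with hEq
    have h1q : 1 ∈ Eq := Finset.mem_filter.2 ⟨h1E, by simp⟩
    have hD'card : D'.card + Eq.card ≤ 4 := by
      have h1 : D' ⊆ insert 1 ((E \ Eq).image fun d => ordCompl[q] d) := by
        intro x hx
        obtain ⟨d, hd, rfl⟩ := Finset.mem_image.1 hx
        by_cases h : ordCompl[q] d = 1
        · rw [h]; exact Finset.mem_insert_self _ _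
        · exact Finset.mem_insert_of_mem (Finset.mem_image_of_mem _
            (Finset.mem_sdiff.2 ⟨hd, fun h' => h (Finset.mem_filter.1 h').2⟩))
      have h2 : (E \ Eq).card = E.card - Eq.card :=
        Finset.card_sdiff_of_subset (Finset.filter_subset _ _)
      have h3 := (Finset.card_le_card h1).trans
        ((Finset.card_insert_le _ _).trans (Nat.add_le_add_right Finset.card_image_le 1))
      have h4 : Eq.card ≤ E.card := Finset.card_le_card (Finset.filter_subset _ _)
      omega
    have hEq0 : 0 < Eq.card := Finset.card_pos.2 ⟨1, h1q⟩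
    have hD'0 : 0 < D'.card := Finset.card_pos.2 ⟨_, hTd (Block.oneIrr T)⟩
    set T' : Subgroup G := ⁅T, T⁆ with hT'
    haveI : T'.Normal := Subgroup.commutator_normal T T
    haveI := Fintype.ofFinite (G ⧸ T')
    set C : Subgroup (G ⧸ T') := T.map (QuotientGroup.mk' T') with hC
    haveI hCn : C.Normal := hTn.map _ (QuotientGroup.mk'_surjective T')
    haveI := Fintype.ofFinite C
    have hCab : ∀ x ∈ C, ∀ y ∈ C, x * y = y * x := by
      rintro _ ⟨x, hx, rfl⟩ _ ⟨y, hy, rfl⟩
      rw [← commutatorElement_eq_one_iff_mul_comm, ← map_commutatorElement,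
        QuotientGroup.mk'_apply, QuotientGroup.eq_one_iff]
      exact Subgroup.commutator_mem_commutator hx hy
    obtain ⟨j, -, hj⟩ := (Nat.dvd_prime_pow hq).1
      (hk ▸ Subgroup.index_map_dvd T (QuotientGroup.mk'_surjective T'))
    have hQ : derivedSeries (G ⧸ T') Eq.card = ⊥ := by
      refine le_bot_iff.1 ((derivedSeries_antitone _ ?_).trans (taketa_count (G := G ⧸ T')
        (fun {_} χ hχ => monomial_of_abelian _ (G ⧸ T') rfl C hCn hCab hq ⟨j, hj⟩ χ hχ)).le)
      rw [← Set.ncard_coe_finset]
      refine Set.ncard_le_ncard ?_ (Finset.finite_toSet _)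
      rintro d ⟨μ, rfl⟩
      have hdd : charDegree (μ : G ⧸ T' → ℂ) ∣ q ^ j := hj ▸ degree_dvd_index_of_abelian C μ.2 hCab
      obtain ⟨i, -, hi⟩ := (Nat.dvd_prime_pow hq).1 hdd
      refine Finset.mem_coe.2 (Finset.mem_filter.2 ⟨?_, ?_⟩)
      · exact deg_inflate T' μ ▸ hmem (inflateEquiv T' μ).1
      · rw [hi, Nat.ordCompl_self_pow hq]
    have hGT : derivedSeries G Eq.card ≤ T' := by
      intro x hx
      rw [← QuotientGroup.eq_one_iff, ← Subgroup.mem_bot, ← hQ]
      exact map_derivedSeries_le_derivedSeries (QuotientGroup.mk' T') _ ⟨x, hx, rfl⟩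
    have hT := ih T (by omega) D' (by omega) hTd
    have h5 : derivedSeries G (Eq.card + (D'.card - 1)) ≤
        (derivedSeries T D'.card).map T.subtype := by
      have haux : ∀ i : ℕ, derivedSeries G (Eq.card + i) ≤ (derivedSeries T (i + 1)).map T.subtype := by
        intro i
        induction i with
        | zero =>
          rw [Nat.add_zero, Nat.zero_add, derivedSeries_one, commutator_def, Subgroup.map_commutator,
            ← MonoidHom.range_eq_map, Subgroup.range_subtype]
          exact hGT
        | succ i ih =>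
          rw [← Nat.add_assoc, derivedSeries_succ, derivedSeries_succ T (i + 1), Subgroup.map_commutator]
          exact Subgroup.commutator_mono ih ih
      have := haux (D'.card - 1)
      rwa [Nat.sub_add_cancel hD'0] at this
    rw [hT, Subgroup.map_bot] at h5
    exact le_bot_iff.1 ((derivedSeries_antitone G (by omega)).trans h5)

end Cfsg.Agent.Lib.Char.ThreeDeg
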